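import Mathlib
import Cfsg.Agent.Base
import Cfsg.Agent.Lib.LocStruct.Conj

/-! Small blocks over a common `2`-subgroup `B`: the graph of non-commuting modules. -/

set_option autoImplicit false
set_option linter.unusedSectionVars false

namespace H92.Q3

open Subgroup H69
open scoped commutatorElement Pointwise

variable {G : Type*} [Group G]

/-- `W` is the natural module of a group `K B` of type `SL₂(q)` with Sylow subgroup `B`. -/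
structure SB (q : ℕ) (B K W : Subgroup G) : Prop where
  WB : W ≤ B
  sq : ∀ w ∈ W, w * w = 1
  ab : W ≤ 𝐂(W)
  ex : ¬ W ≤ 𝐂(B)
  cardB : Nat.card B = q * Nat.card (B ⊓ 𝐂(W) : Subgroup G)
  cardW : Nat.card W = q * Nat.card (W ⊓ 𝐂(B) : Subgroup G)
  reg' : ∀ b ∈ B, b ∉ 𝐂(W) → ∀ w ∈ W, ⁅b, w⁆ = 1 → w ∈ 𝐂(B)
  reg : ∀ b ∈ B, ∀ w ∈ W, ⁅w, b⁆ ∈ 𝐂(K) → ⁅w, b⁆ = 1
  QQ : ⁅B ⊓ 𝐂(W), B ⊓ 𝐂(W)⁆ ≤ 𝐂(K)
  sqQ : ∀ u ∈ B ⊓ 𝐂(W), u * u ∈ 𝐂(K)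
  core : ∀ P : Subgroup G, IsPGroup 2 P → K ≤ 𝐍(P) → B ≤ 𝐍(P) → P ⊓ B ≤ 𝐂(W)

section Map

variable {H : Type*} [Group H] {f : H →* G}

theorem mem_cent_map (hf : Function.Injective f) {A : Subgroup H} {x : H} :
    f x ∈ 𝐂(A.map f) ↔ x ∈ 𝐂(A) := by
  constructor
  · intro h a ha
    apply hf
    rw [map_mul, map_mul]
    exact h _ ⟨a, ha, rfl⟩
  · rintro h _ ⟨a, ha, rfl⟩
    rw [← map_mul, ← map_mul, h a ha]

theorem map_inf_cent (hf : Function.Injective f) (A C : Subgroup H) :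
    (A ⊓ 𝐂(C)).map f = A.map f ⊓ 𝐂(C.map f) := by
  ext x
  constructor
  · rintro ⟨a, ha, rfl⟩
    exact ⟨⟨a, ha.1, rfl⟩, (mem_cent_map hf).2 ha.2⟩
  · rintro ⟨⟨a, ha, rfl⟩, h⟩
    exact ⟨a, ⟨ha, (mem_cent_map hf).1 h⟩, rfl⟩

theorem map_le_cent (hf : Function.Injective f) {A C : Subgroup H} :
    A.map f ≤ 𝐂(C.map f) ↔ A ≤ 𝐂(C) :=
  ⟨fun h _ ha => (mem_cent_map hf).1 (h ⟨_, ha, rfl⟩), fun h _ ⟨_, ha, e⟩ => e ▸ (mem_cent_map hf).2 (h ha)⟩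

theorem le_norm_comap {A : Subgroup H} {P : Subgroup G} (h : A.map f ≤ 𝐍(P)) : A ≤ 𝐍(P.comap f) := by
  intro a ha
  have := h ⟨a, ha, rfl⟩
  rw [mem_normalizer_iff] at this ⊢
  intro x
  simp only [mem_comap, map_mul, map_inv]
  exact this _

theorem SB.map (hf : Function.Injective f) {q : ℕ} {B K W : Subgroup H} (h : SB q B K W) :
    SB q (B.map f) (K.map f) (W.map f) where
  WB := map_mono h.WB
  sq := by
    rintro _ ⟨w, hw, rfl⟩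
    rw [← map_mul, h.sq w hw, map_one]
  ab := (map_le_cent hf).2 h.ab
  ex := fun e => h.ex ((map_le_cent hf).1 e)
  cardB := by
    rw [← map_inf_cent hf, card_map_of_injective hf, card_map_of_injective hf, h.cardB]
  cardW := by
    rw [← map_inf_cent hf, card_map_of_injective hf, card_map_of_injective hf, h.cardW]
  reg' := by
    rintro _ ⟨b, hb, rfl⟩ h1 _ ⟨w, hw, rfl⟩ e
    rw [mem_cent_map hf] at h1 ⊢
    rw [← map_commutatorElement, map_eq_one_iff f hf] at e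
    exact h.reg' b hb h1 w hw e
  reg := by
    rintro _ ⟨b, hb, rfl⟩ _ ⟨w, hw, rfl⟩ e
    rw [← map_commutatorElement] at e ⊢
    rw [h.reg b hb w hw ((mem_cent_map hf).1 e), map_one]
  QQ := by
    rw [← map_inf_cent hf, ← map_commutator]
    exact (map_le_cent hf).2 h.QQ
  sqQ := by
    rw [← map_inf_cent hf]
    rintro _ ⟨u, hu, rfl⟩
    rw [← map_mul]
    exact (mem_cent_map hf).2 (h.sqQ u hu)
  core := by
    rintro P hP h1 h2 _ ⟨h3, b, hb, rfl⟩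
    exact (mem_cent_map hf).2 (h.core _ (hP.comap_of_injective f hf) (le_norm_comap h1) (le_norm_comap h2)
      ⟨h3, hb⟩)

end Map

variable {q : ℕ} {B K W K' W' K'' W'' M T : Subgroup G} {x y : G}

theorem SB.cj (h : SB q B K W) (hx : x ∈ 𝐍(B)) : SB q B (K ^ᶜ x) (W ^ᶜ x) := by
  have := h.map (f := (MulAut.conj x).toMonoidHom) (MulAut.conj x).injective
  rwa [cj_eq_of_mem_normalizer hx] at this

theorem cj_le_cent {A C : Subgroup G} : A ^ᶜ x ≤ 𝐂(C ^ᶜ x) ↔ A ≤ 𝐂(C) :=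
  map_le_cent (MulAut.conj x).injective

theorem cj_D (hx : x ∈ 𝐍(B)) : ⁅W ^ᶜ x, B⁆ = ⁅W, B⁆ ^ᶜ x := by
  rw [cj_commutator, cj_eq_of_mem_normalizer hx]

theorem cent_symm {A C : Subgroup G} (h : A ≤ 𝐂(C)) : C ≤ 𝐂(A) := le_centralizer_iff.1 h

theorem comm_dec {w a c : G} (h : w * c = c * w) : ⁅w, a * c⁆ = ⁅w, a⁆ := by
  rw [commutatorElement_def, commutatorElement_def, mul_inv_rev]
  calc w * (a * c) * w⁻¹ * (c⁻¹ * a⁻¹) = w * a * w⁻¹ * (w * c) * w⁻¹ * c⁻¹ * a⁻¹ := by group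
    _ = w * a * w⁻¹ * a⁻¹ := by rw [h]; group

namespace SB

theorem mem_cB (h : SB q B K W) (h' : SB q B K' W') (a : ¬ W' ≤ 𝐂(W)) (h1 : x ∈ W') (h2 : x ∈ 𝐂(W)) :
    x ∈ 𝐂(B) := by
  obtain ⟨u, hu, hu'⟩ := SetLike.not_le_iff_exists.1 fun e => a (cent_symm e)
  exact h'.reg' u (h.WB hu) hu' x h1 (commutatorElement_eq_one_iff_mul_comm.2 (h2 u hu))

variable [Finite G]

theorem dec (h : SB q B K W) (h' : SB q B K' W') (a : ¬ W' ≤ 𝐂(W)) {b : G} (hb : b ∈ B) :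
    ∃ a ∈ W', ∃ c ∈ B ⊓ 𝐂(W), b = a * c := by
  have e : W' ⊓ 𝐂(B) = W' ⊓ 𝐂(W) := le_antisymm (inf_le_inf_left _ (centralizer_le h.WB))
    fun x hx => ⟨hx.1, h.mem_cB h' a hx.1 hx.2⟩
  have key : ∀ A : Subgroup G, Nat.card A = q * Nat.card (A ⊓ 𝐂(W) : Subgroup G) →
      Nat.card (A ⧸ 𝐂(W).subgroupOf A) = q := fun A hA => by
    have h1 := card_eq_card_quotient_mul_card_subgroup (𝐂(W).subgroupOf A)
    have h2 : Nat.card (𝐂(W).subgroupOf A) = Nat.card (A ⊓ 𝐂(W) : Subgroup G) := by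
      rw [← inf_subgroupOf_left]
      exact Nat.card_congr (subgroupOfEquivOfLe inf_le_left).toEquiv
    rw [h2, hA] at h1
    exact (Nat.eq_of_mul_eq_mul_right Nat.card_pos h1).symm
  have hbij := (Nat.bijective_iff_injective_and_card _).2
    ⟨(quotientSubgroupOfEmbeddingOfLE 𝐂(W) h'.WB).injective, by
      rw [key W' (e ▸ h'.cardW), key B h.cardB]⟩
  obtain ⟨z, hz⟩ := hbij.2 (QuotientGroup.mk ⟨b, hb⟩)
  obtain ⟨z, rfl⟩ := QuotientGroup.mk_surjective z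
  rw [quotientSubgroupOfEmbeddingOfLE_apply_mk, QuotientGroup.eq, mem_subgroupOf] at hz
  exact ⟨z, z.2, (z : G)⁻¹ * b, ⟨B.mul_mem (inv_mem (h'.WB z.2)) hb, hz⟩, by group⟩

/-- no triangles -/
theorem tri (h : SB q B K W) (h' : SB q B K' W') (h'' : SB q B K'' W'') (a1 : ¬ W' ≤ 𝐂(W))
    (a2 : ¬ W'' ≤ 𝐂(W)) : W'' ≤ 𝐂(W') := by
  by_contra a3
  obtain ⟨b, hb, hb'⟩ := SetLike.not_le_iff_exists.1 a2
  have b2 : b ∉ 𝐂(W') := fun e => hb' (centralizer_le h.WB (h'.mem_cB h'' a3 hb e))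
  obtain ⟨a, ha, c, hc, e1⟩ := h.dec h' a1 (h''.WB hb)
  obtain ⟨u, hu, c', hc', e2⟩ := h'.dec h (fun e => a1 (cent_symm e)) (h''.WB hb)
  have ia : a⁻¹ = a := inv_eq_of_mul_eq_one_right (h'.sq a ha)
  have ib : b⁻¹ = b := inv_eq_of_mul_eq_one_right (h''.sq b hb)
  have e3 : c * c = ⁅a, u⁆ := by
    have : c = a * b := by rw [e1, ← mul_assoc, h'.sq a ha, one_mul]
    rw [← comm_dec (hc'.2 a ha), ← e2, commutatorElement_def, ia, ib, this, mul_assoc (a * b)]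
  have e4 : ⁅u, a⁆ = 1 := h.reg a (h'.WB ha) u hu (by
    rw [← commutatorElement_inv, ← e3]; exact inv_mem (h.sqQ c hc))
  have e5 := h.reg' a (h'.WB ha) (fun e => hb' (e1 ▸ mul_mem e hc.2)) u hu (by
    rw [← commutatorElement_inv, e4, inv_one])
  exact b2 (e2 ▸ mul_mem (centralizer_le h'.WB e5) hc'.2)

theorem D_eq (h : SB q B K W) (h' : SB q B K' W') (a : ¬ W' ≤ 𝐂(W)) : ⁅W, B⁆ = ⁅W, W'⁆ := by
  refine le_antisymm (commutator_le.2 fun w hw b hb => ?_) (commutator_mono le_rfl h'.WB)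
  obtain ⟨a, ha, c, hc, rfl⟩ := h.dec h' a hb
  rw [comm_dec (hc.2 w hw)]
  exact commutator_mem_commutator hw ha

theorem D_adj (h : SB q B K W) (h' : SB q B K' W') (a : ¬ W' ≤ 𝐂(W)) : ⁅W', B⁆ = ⁅W, B⁆ := by
  rw [h.D_eq h' a, h'.D_eq h fun e => a (cent_symm e), commutator_comm]

theorem D_not (h : SB q B K W) : ¬ ⁅W, B⁆ ≤ 𝐂(K) := fun e =>
  h.ex fun w hw b hb => (commutatorElement_eq_one_iff_mul_comm.1
    (h.reg b hb w hw (e (commutator_mem_commutator hw hb)))).symm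

theorem D_le (h : SB q B K W) (h' : SB q B K' W') (h'' : SB q B K'' W'') (a : ¬ W' ≤ 𝐂(W))
    (c1 : W ≤ 𝐂(W'')) (c2 : W' ≤ 𝐂(W'')) : ⁅W, B⁆ ≤ 𝐂(K'') := by
  rw [h.D_eq h' a]
  exact (commutator_mono (le_inf h.WB c1) (le_inf h'.WB c2)).trans h''.QQ

theorem D_le' (h : SB q B K W) (h' : SB q B K' W') (h'' : SB q B K'' W'') (a : ¬ W' ≤ 𝐂(W))
    (e : ⁅W'', B⁆ ≠ ⁅W, B⁆) : ⁅W, B⁆ ≤ 𝐂(K'') := by
  refine h.D_le h' h'' a ?_ ?_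
  · by_contra c
    exact e (h''.D_adj h c).symm
  · by_contra c
    exact e ((h''.D_adj h' c).symm.trans (h.D_adj h' a))

theorem par (h : SB q B K W) (h' : SB q B K' W') (h'' : SB q B K'' W'') (a : ¬ W' ≤ 𝐂(W))
    (e : ⁅W'', B⁆ = ⁅W, B⁆) (c : W ≤ 𝐂(W'')) : ¬ W' ≤ 𝐂(W'') := fun c2 =>
  h''.D_not (e ▸ h.D_le h' h'' a c c2)

theorem odd_pow (h : SB q B K W) (hy : y ∈ 𝐍(B)) (a : ¬ W ^ᶜ y ≤ 𝐂(W)) (j : ℕ) :
    ¬ W ^ᶜ (y ^ (2 * j + 1)) ≤ 𝐂(W) := by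
  have hD : y ∈ 𝐍(⁅W, B⁆) := by
    rw [← cj_eq_self_iff, ← cj_D hy]
    exact h.D_adj (h.cj hy) a
  have s : ∀ k : ℕ, SB q B (K ^ᶜ (y ^ k)) (W ^ᶜ (y ^ k)) := fun k => h.cj (pow_mem hy k)
  have st : ∀ k : ℕ, ¬ W ^ᶜ (y ^ (k + 1)) ≤ 𝐂(W ^ᶜ (y ^ k)) := fun k e => by
    rw [pow_succ, ← cj_cj, cj_le_cent] at e
    exact a e
  induction j with
  | zero => simpa using a
  | succ j ih =>
    have h1 : W ^ᶜ (y ^ (2 * j + 1 + 1)) ≤ 𝐂(W) :=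
      cent_symm ((s _).tri (s _) h (st (2 * j + 1)) fun e => ih (cent_symm e))
    refine (s (2 * j + 1 + 1)).par (s _) h (st _) ?_ h1
    rw [cj_D (pow_mem hy _), cj_eq_of_mem_normalizer (pow_mem hD _)]

theorem main (h : SB q B K W) (hM : M ≤ 𝐍(B)) (hT : T ≤ M)
    (syl : ∀ y ∈ M, (∃ k, y ^ 2 ^ k = 1) → ∃ g ∈ M, g * y * g⁻¹ ∈ T)
    (hc : ∀ s ∈ T, W ^ᶜ s ≤ 𝐂(W)) (hy : y ∈ M) (a : ¬ W ^ᶜ y ≤ 𝐂(W)) :
    ∃ D ≤ B, D ≠ ⊥ ∧ T ≤ 𝐍(D) ∧ D ≤ 𝐂(K) ∧ D ≤ 𝐂(K ^ᶜ y) := by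
  obtain ⟨k, m, ⟨j, rfl⟩, e⟩ := Nat.exists_eq_two_pow_mul_odd (orderOf_pos y).ne'
  obtain ⟨g, hg, ht⟩ := syl (y ^ (2 * j + 1)) (pow_mem hy _)
    ⟨k, by rw [← pow_mul, mul_comm, ← e, pow_orderOf_eq_one]⟩
  set t := g * y ^ (2 * j + 1) * g⁻¹ with htd
  have s : ∀ x ∈ M, SB q B (K ^ᶜ x) (W ^ᶜ x) := fun x hx => h.cj (hM hx)
  have a3 : ¬ W ^ᶜ (t * g) ≤ 𝐂(W ^ᶜ g) := fun e => by
    rw [htd, inv_mul_cancel_right, ← cj_cj, cj_le_cent] at e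
    exact h.odd_pow (hM hy) a j e
  have tg := mul_mem (hT ht) hg
  have key : ∀ r ∈ T, ⁅W ^ᶜ r, B⁆ ≠ ⁅W ^ᶜ g, B⁆ := by
    intro r hr e
    have tr := mul_mem (hT ht) (hT hr)
    have e1 := (s g hg).D_adj (s _ tg) a3
    have e2 : ⁅W ^ᶜ (t * r), B⁆ = ⁅W ^ᶜ g, B⁆ := by
      rw [← cj_cj, cj_D (hM (hT ht)), e, ← cj_D (hM (hT ht)), cj_cj, e1]
    have c0 : W ^ᶜ (t * r) ≤ 𝐂(W ^ᶜ r) := by
      have := (cj_le_cent (x := r)).2 (hc (r⁻¹ * (t * r)) (mul_mem (inv_mem hr) (mul_mem ht hr)))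
      rwa [cj_cj, mul_inv_cancel_left] at this
    have tt : W ^ᶜ (t * r) ≤ 𝐂(W ^ᶜ (t * g)) ↔ W ^ᶜ r ≤ 𝐂(W ^ᶜ g) := by
      rw [← cj_cj W r t, ← cj_cj W g t, cj_le_cent]
    by_cases c : W ^ᶜ r ≤ 𝐂(W ^ᶜ g)
    · have c1 := (s g hg).par (s _ tg) (s r (hT hr)) a3 e (cent_symm c)
      exact (s r (hT hr)).par (s _ tg) (s _ tr) c1 (e2.trans e.symm) (cent_symm c0) (cent_symm (tt.2 c))
    · have c1 := (s g hg).tri (s _ tg) (s r (hT hr)) a3 c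
      exact (s _ tr).par (s _ tg) (s r (hT hr)) (fun e => c (tt.1 (cent_symm e))) (e.trans e2.symm) c0
        (cent_symm c1)
  have key2 : ∀ r ∈ T, ⁅W, B⁆ ≠ ⁅W ^ᶜ (r * g), B⁆ := fun r hr e => key r⁻¹ (inv_mem hr) (by
    rw [cj_D (hM (hT (inv_mem hr))), e, ← cj_D (hM (hT (inv_mem hr))), cj_cj, inv_mul_cancel_left])
  have a4 : ∀ r ∈ T, ¬ W ^ᶜ (r * (t * g)) ≤ 𝐂(W ^ᶜ (r * g)) := fun r hr e => by
    rw [← cj_cj W (t * g) r, ← cj_cj W g r, cj_le_cent] at e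
    exact a3 e
  have le : ∀ {K' W'}, SB q B K' W' → ⁅W', B⁆ = ⁅W, B⁆ → ncl ⁅W ^ᶜ g, B⁆ T ≤ 𝐂(K') := fun h' e =>
    ncl_le_iff.2 fun r hr => by
      rw [← cj_D (hM (hT hr)), cj_cj]
      exact (s _ (mul_mem (hT hr) hg)).D_le' (s _ (mul_mem (hT hr) tg)) h' (a4 r hr) (e ▸ key2 r hr)
  refine ⟨ncl ⁅W ^ᶜ g, B⁆ T, ncl_le_iff.2 fun r hr => ?_, fun e => (s g hg).D_not ?_, le_normalizer_ncl _ _,
    le h rfl, le (s y hy) (h.D_adj (s y hy) a)⟩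
  · exact cj_le_of_mem_normalizer (commutator_le.2 fun w hw b hb =>
      mul_mem (mul_mem (mul_mem ((s g hg).WB hw) hb) (inv_mem ((s g hg).WB hw))) (inv_mem hb)) (hM (hT hr))
  · exact (le_ncl _ T).trans (e.le.trans bot_le)

end SB

end H92.Q3
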